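import Cfsg.Agent.Lib.PermComp.Spor.CertJ2
import Cfsg.Prelude.Def_Sporadic

/-!
# A simple permutation group of degree 100 and order 604800
-/

namespace Cfsg.Agent.Lib.PermComp.Spor.J2

open Cfsg.Agent.Lib.PermComp Cfsg.Agent.Lib.PermComp.Spor.CertJ2

theorem j2_valid : Core.allL (Simple.validB j2_n j2_w j2_mask j2_idc) j2_G_T = true := by
  decide +kernel

theorem j2_idok : Core.allL (fun i => Nat.beq (Core.app j2_w j2_mask j2_idc i) i)
    (List.range j2_n) = true := by
  decide +kernel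

theorem exists_j2 : ∃ G : Subgroup (Equiv.Perm (Fin 100)), Cfsg.IsJ2 G := by
  have hm : j2_mask = 2 ^ j2_w - 1 := by decide +kernel
  have hid : ∀ i < j2_n, Core.app j2_w j2_mask j2_idc i = i := fun i hi =>
    Nat.eq_of_beq_eq_true ((Core.allL_eq_true _ _).1 j2_idok i (List.mem_range.2 hi))
  have hT : ∀ c ∈ j2_G_T, ∃ g : Equiv.Perm (Fin j2_n),
      Core.Rep j2_w j2_mask (Equiv.refl (Fin j2_n)) c g := fun c hc =>
    Simple.exists_rep_of_valid hm hid ((Core.allL_eq_true _ _).1 j2_valid c hc)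
  refine ⟨Core.H j2_w j2_mask (Equiv.refl (Fin j2_n)) j2_G_T, ?_, ?_⟩
  · exact Simple.isSimple_of_cert hT j2_G_ok j2_order (by norm_num) j2_reps_ok j2_syls_ok j2_prod
  · obtain ⟨-, -, -, -, -, h⟩ := Core.main_of_checkAll hT j2_G_ok
    exact h.trans j2_order

end Cfsg.Agent.Lib.PermComp.Spor.J2
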